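import Cfsg.Prelude.Def_E6
import Cfsg.Agent.H46.E6Cubic.Data

/-!
The cubic form of type E₆ as a sum of 45 monomials, its partial polarisations, and their invariance
under the isometries over a field with at least three elements.
-/

set_option autoImplicit false

namespace Cfsg.Agent.H46.E6Cubic

open Cfsg.Lie
open scoped Matrix

/-- Coordinates as numbers below 27. -/
def code : I27 ≃ Fin 27 := (Equiv.prodCongr (Equiv.refl _) finProdFinEquiv).trans finProdFinEquiv

/-- The coordinate with a given number. -/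
def ix (a : ℕ) : I27 := (Fin.ofNat 3 (a / 9), Fin.ofNat 3 (a / 3), Fin.ofNat 3 a)

theorem ix_val (i : Fin 27) : ix i.val = code.symm i := by revert i; decide

theorem code_ix {a : ℕ} (ha : a < 27) : (code (ix a)).val = a := by
  have := congrArg code (ix_val ⟨a, ha⟩)
  rw [Equiv.apply_symm_apply] at this
  rw [this]

theorem ix_code (i : I27) : ix (code i).val = i := by rw [ix_val, Equiv.symm_apply_apply]

theorem ix_inj {a b : ℕ} (ha : a < 27) (hb : b < 27) : ix a = ix b ↔ a = b :=
  ⟨fun h => by rw [← code_ix ha, h, code_ix hb], fun h => h ▸ rfl⟩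

variable {F : Type*} [Field F]

/-- A basis vector. -/
def bv (F : Type*) [Field F] (a : ℕ) : I27 → F := Pi.single (ix a) 1

theorem bv_apply {a j : ℕ} (ha : a < 27) (hj : j < 27) : bv F j (ix a) = if a = j then (1 : F) else 0 := by
  rw [bv, Pi.single_apply]
  by_cases h : a = j
  · rw [if_pos h, if_pos (by rw [h])]
  · rw [if_neg h, if_neg fun e => h ((ix_inj ha hj).1 e)]

/-- The value of a monomial. -/
def tm (m : ℕ × ℕ × ℕ × ℤ) (v : I27 → F) : F := (m.2.2.2 : F) * v (ix m.1) * v (ix m.2.1) * v (ix m.2.2.1)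

/-- The form. -/
def T (v : I27 → F) : F := (mons.map fun m => tm m v).sum

/-- Quadratic in the first, linear in the second vector. -/
def D (x y : I27 → F) : F := (mons.map fun m => (m.2.2.2 : F) *
  (y (ix m.1) * x (ix m.2.1) * x (ix m.2.2.1) + x (ix m.1) * y (ix m.2.1) * x (ix m.2.2.1) +
    x (ix m.1) * x (ix m.2.1) * y (ix m.2.2.1))).sum

/-- The trilinear form. -/
def B (x y z : I27 → F) : F := (mons.map fun m => (m.2.2.2 : F) *
  (x (ix m.1) * (y (ix m.2.1) * z (ix m.2.2.1) + y (ix m.2.2.1) * z (ix m.2.1)) +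
    x (ix m.2.1) * (y (ix m.1) * z (ix m.2.2.1) + y (ix m.2.2.1) * z (ix m.1)) +
    x (ix m.2.2.1) * (y (ix m.1) * z (ix m.2.1) + y (ix m.2.1) * z (ix m.1)))).sum

theorem cubicT_eq (v : I27 → F) : cubicT v = T v := by
  simp only [cubicT, mat3, Matrix.det_fin_three, Matrix.trace, Matrix.diag, Matrix.mul_apply,
    Fin.sum_univ_three, Matrix.of_apply, T, tm, mons, List.map_cons, List.map_nil, List.sum_cons,
    List.sum_nil]
  simp only [ix, Fin.ofNat, Nat.reduceDiv, Nat.reduceMod, Fin.mk_zero, Fin.mk_one, Fin.reduceFinMk]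
  push_cast
  ring

theorem sum_map_three {α : Type*} (L : List α) (f g h k : α → F) (s : F) :
    (L.map fun a => f a + s * g a + s ^ 2 * h a + s ^ 3 * k a).sum =
      (L.map f).sum + s * (L.map g).sum + s ^ 2 * (L.map h).sum + s ^ 3 * (L.map k).sum := by
  induction L with
  | nil => simp
  | cons a L ih => simp only [List.map_cons, List.sum_cons, ih]; ring

theorem T_add_smul (x y : I27 → F) (s : F) :
    T (x + s • y) = T x + s * D x y + s ^ 2 * D y x + s ^ 3 * T y := by
  simp only [T, D]
  rw [← sum_map_three]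
  congr 1
  refine List.map_congr_left fun m _ => ?_
  simp only [tm, Pi.add_apply, Pi.smul_apply, smul_eq_mul]
  ring

theorem D_add (x z y : I27 → F) : D (x + z) y = D x y + D z y + B x z y := by
  have h3 : ∀ (L : List (ℕ × ℕ × ℕ × ℤ)) (f g h : ℕ × ℕ × ℕ × ℤ → F),
      (L.map fun a => f a + g a + h a).sum = (L.map f).sum + (L.map g).sum + (L.map h).sum := by
    intro L f g h
    induction L with
    | nil => simp
    | cons a L ih => simp only [List.map_cons, List.sum_cons, ih]; ring
  simp only [D, B]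
  rw [← h3]
  congr 1
  refine List.map_congr_left fun m _ => ?_
  simp only [Pi.add_apply]
  ring

theorem B_swap (x y z : I27 → F) : B x y z = B x z y := by
  simp only [B]
  congr 1
  refine List.map_congr_left fun m _ => ?_
  ring

/-- An element acting on vectors. -/
noncomputable def act (g : E6univ F) (v : I27 → F) : I27 → F :=
  ((g : GL I27 F) : Matrix I27 I27 F) *ᵥ v

theorem act_mul (g h : E6univ F) (v : I27 → F) : act (g * h) v = act g (act h v) := by
  simp [act, Matrix.mulVec_mulVec]

theorem act_one (v : I27 → F) : act (1 : E6univ F) v = v := by simp [act]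

theorem act_inv (g : E6univ F) (v : I27 → F) : act g (act g⁻¹ v) = v := by
  rw [← act_mul, mul_inv_cancel, act_one]

theorem act_add (g : E6univ F) (v w : I27 → F) : act g (v + w) = act g v + act g w :=
  Matrix.mulVec_add _ _ _

theorem act_smul (g : E6univ F) (c : F) (v : I27 → F) : act g (c • v) = c • act g v :=
  Matrix.mulVec_smul _ _ _

theorem T_act (g : E6univ F) (v : I27 → F) : T (act g v) = T v := by
  rw [← cubicT_eq, ← cubicT_eq]; exact g.2 v

theorem D_act (h3 : ∃ c : F, c ≠ 0 ∧ c ≠ 1) (g : E6univ F) (x y : I27 → F) :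
    D (act g x) (act g y) = D x y := by
  obtain ⟨c, hc0, hc1⟩ := h3
  have key : ∀ s : F, s * (D (act g x) (act g y) - D x y) + s ^ 2 * (D (act g y) (act g x) - D y x) = 0 := by
    intro s
    have h := T_act g (x + s • y)
    rw [act_add, act_smul, T_add_smul, T_add_smul, T_act, T_act] at h
    linear_combination h
  have h1 := key 1
  have h2 := key c
  have h4 : (c ^ 2 - c) * (D (act g x) (act g y) - D x y) = 0 := by linear_combination c ^ 2 * h1 - h2
  rcases mul_eq_zero.1 h4 with h | h
  · refine absurd ?_ hc1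
    have : c * (c - 1) = 0 := by linear_combination h
    exact sub_eq_zero.1 ((mul_eq_zero.1 this).resolve_left hc0)
  · exact sub_eq_zero.1 h

theorem B_act (h3 : ∃ c : F, c ≠ 0 ∧ c ≠ 1) (g : E6univ F) (x y z : I27 → F) :
    B (act g x) (act g y) (act g z) = B x y z := by
  have h := D_act h3 g (x + y) z
  rw [act_add, D_add, D_add, D_act h3 g x z, D_act h3 g y z] at h
  exact add_left_cancel h

/-- The pairs completing a coordinate to a monomial. -/
def pairsAt (j : ℕ) : List (ℕ × ℕ × ℤ) := mons.flatMap fun m =>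
  (bif m.1 == j then [(m.2.1, m.2.2.1, m.2.2.2)] else []) ++
  ((bif m.2.1 == j then [(m.1, m.2.2.1, m.2.2.2)] else []) ++
  (bif m.2.2.1 == j then [(m.1, m.2.1, m.2.2.2)] else []))

/-- The coordinates completing a pair to a monomial. -/
def pairTerm (j k : ℕ) : List (ℕ × ℤ) := (pairsAt j).flatMap fun e =>
  (bif e.1 == k then [(e.2.1, e.2.2)] else []) ++ (bif e.2.1 == k then [(e.1, e.2.2)] else [])

theorem mons_lt : ∀ m ∈ mons, m.1 < 27 ∧ m.2.1 < 27 ∧ m.2.2.1 < 27 ∧
    m.1 ≠ m.2.1 ∧ m.1 ≠ m.2.2.1 ∧ m.2.1 ≠ m.2.2.1 := by decide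

theorem pairsAt_lt {j : ℕ} {e : ℕ × ℕ × ℤ} (he : e ∈ pairsAt j) : e.1 < 27 ∧ e.2.1 < 27 := by
  obtain ⟨m, hm, he⟩ := List.mem_flatMap.1 he
  obtain ⟨h1, h2, h3, -⟩ := mons_lt m hm
  simp only [List.mem_append] at he
  rcases he with h | h | h <;> revert h <;>
    (cases (_ == j : Bool) <;> simp <;> rintro rfl <;> simp_all)

theorem sum_flatMap {α β : Type*} (L : List α) (f : α → List β) (g : β → F) :
    ((L.flatMap f).map g).sum = (L.map fun a => ((f a).map g).sum).sum := by
  induction L with
  | nil => simp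
  | cons a L ih => simp [List.flatMap_cons, ih]

theorem sum_bif {β : Type*} (c : Bool) (x : β) (g : β → F) :
    (((bif c then [x] else [])).map g).sum = if c then g x else 0 := by
  cases c <;> simp

theorem B_bv {j : ℕ} (hj : j < 27) (y z : I27 → F) :
    B (bv F j) y z = ((pairsAt j).map fun e => (e.2.2 : F) *
      (y (ix e.1) * z (ix e.2.1) + y (ix e.2.1) * z (ix e.1))).sum := by
  rw [pairsAt, sum_flatMap, B]
  congr 1
  refine List.map_congr_left fun m hm => ?_
  obtain ⟨h1, h2, h3, -⟩ := mons_lt m hm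
  simp only [List.map_append, List.sum_append, sum_bif, bv_apply h1 hj, bv_apply h2 hj, bv_apply h3 hj,
    beq_iff_eq]
  split_ifs <;> ring

theorem D_to_bv {d : ℕ} (hd : d < 27) (x : I27 → F) :
    D x (bv F d) = ((pairsAt d).map fun e => (e.2.2 : F) * (x (ix e.1) * x (ix e.2.1))).sum := by
  rw [pairsAt, sum_flatMap, D]
  congr 1
  refine List.map_congr_left fun m hm => ?_
  obtain ⟨h1, h2, h3, -⟩ := mons_lt m hm
  simp only [List.map_append, List.sum_append, sum_bif, bv_apply h1 hd, bv_apply h2 hd, bv_apply h3 hd,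
    beq_iff_eq]
  split_ifs <;> ring

theorem B_bv_bv {j k : ℕ} (hj : j < 27) (hk : k < 27) (z : I27 → F) :
    B (bv F j) (bv F k) z = ((pairTerm j k).map fun e => (e.2 : F) * z (ix e.1)).sum := by
  rw [B_bv hj, pairTerm, sum_flatMap]
  congr 1
  refine List.map_congr_left fun e he => ?_
  obtain ⟨h1, h2⟩ := pairsAt_lt he
  simp only [List.map_append, List.sum_append, sum_bif, bv_apply h1 hk, bv_apply h2 hk, beq_iff_eq]
  split_ifs <;> ring

theorem D_bv {b : ℕ} (hb : b < 27) (y : I27 → F) : D (bv F b) y = 0 := by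
  refine List.sum_eq_zero fun x hx => ?_
  obtain ⟨m, hm, rfl⟩ := List.mem_map.1 hx
  obtain ⟨h1, h2, h3, n12, n13, n23⟩ := mons_lt m hm
  rw [bv_apply h1 hb, bv_apply h2 hb, bv_apply h3 hb]
  split_ifs <;> first | omega | ring

end Cfsg.Agent.H46.E6Cubic
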