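import Cfsg.Agent.H46.E6Cubic.Reduce
import Cfsg.Agent.H47.OmegaIso

/-!
The isometry group of the cubic form of type E₆ modulo its centre is the Chevalley group.
-/

set_option autoImplicit false
set_option maxRecDepth 20000

namespace Cfsg.Agent.H46.E6Cubic

open Cfsg.Lie
open scoped Matrix commutatorElement

variable {F : Type*} [Field F]

/-- The witness of perfectness at a root. -/
def perfOk (k : ℕ) : Bool :=
  let p := perfTab.getD k (72, 72)
  decide (p.1 < 72 ∧ p.2 < 72) && !(p.2 == p.1) && !(p.2 == chevE6.neg p.1) &&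
    match chevE6.commTerms p.1 p.2 with
    | [(k', c, 1, 1)] => k' == k && unitB c
    | _ => false

theorem perfOk_all : ((List.range 72).all perfOk) = true := by decide +kernel

theorem τ_eq_commutator {k : ℕ} (hk : k < 72) (x : F) :
    ∃ a b : E6univ F, τ F k x = ⁅a, b⁆ ∧ ∃ (r s : ℕ) (t u : F), r < 72 ∧ s < 72 ∧ a = (τ F s u)⁻¹ ∧
      b = (τ F r t)⁻¹ := by
  have h := List.all_eq_true.1 perfOk_all k (List.mem_range.2 hk)
  unfold perfOk at h
  simp only [Bool.and_eq_true, decide_eq_true_eq, Bool.not_eq_true', beq_eq_false_iff_ne] at h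
  obtain ⟨⟨⟨⟨hr, hs⟩, h1⟩, h2⟩, h⟩ := h
  set r := (perfTab.getD k (72, 72)).1
  set s := (perfTab.getD k (72, 72)).2
  split at h
  · rename_i k' c he
    simp only [Bool.and_eq_true, beq_iff_eq] at h
    obtain ⟨rfl, hc⟩ := h
    refine ⟨_, _, ?_, r, s, -((c : F) * x), 1, hr, hs, rfl, rfl⟩
    have hcomm := τ_comm (F := F) r s hr hs h1 h2 (-((c : F) * x)) 1
    have hw : Cfsg.Agent.H70.Steinberg.wordEval (τ F) (chevE6.commWord F r s (-((c : F) * x)) 1) = τ F k' x := by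
      simp [ChevalleyDatum.commWord, he, Cfsg.Agent.H70.Steinberg.wordEval, ← mul_assoc, unitB_sq hc]
    rw [hw] at hcomm
    have e : τ F k' x = (τ F s 1)⁻¹ * (τ F r (-((c : F) * x)))⁻¹ * (τ F s 1 * τ F r (-((c : F) * x))) := by
      rw [hcomm]; group
    rw [e, commutatorElement_def]; group
  · exact absurd h Bool.false_ne_true

theorem commutator_E6univ (h3 : ∃ c : F, c ≠ 0 ∧ c ≠ 1) : commutator (E6univ F) = ⊤ := by
  rw [eq_top_iff, ← Egrp_eq_top h3, Egrp, Subgroup.closure_le]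
  rintro _ ⟨r, t, hr, rfl⟩
  obtain ⟨a, b, e, -⟩ := τ_eq_commutator hr t
  rw [e]
  exact Subgroup.commutator_mem_commutator (Subgroup.mem_top _) (Subgroup.mem_top _)

theorem τ_one_ne : τ F 0 1 ≠ 1 := by
  intro h
  have hfacts : ∀ e ∈ (rootE 0).take 1, into 0 e.1 = [e] ∧ unitB e.2.2 = true ∧ e.1 ≠ e.2.1 := by decide +kernel
  have hne : (rootE 0).take 1 ≠ [] := by decide +kernel
  obtain ⟨e, he⟩ := List.exists_mem_of_ne_nil _ hne
  obtain ⟨h1, h2, h4⟩ := hfacts e he
  obtain ⟨hl1, hl2⟩ := rootE_lt (List.mem_of_mem_take he)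
  have h5 := congrArg (fun g => act g (bv F e.2.1) (ix e.1)) h
  rw [act_one, act_τ (by norm_num), xM_mulVec 0 1 _ hl1, show (rootE 0).filter _ = _ from h1] at h5
  simp [bv_apply hl2 hl2, bv_apply hl1 hl2] at h5
  exact unitB_ne h2 h5

theorem τ_not_comm : ∃ (r s : ℕ) (t u : F), r < chevE6.nroots ∧ s < chevE6.nroots ∧
    τ F r t * τ F s u ≠ τ F s u * τ F r t := by
  obtain ⟨a, b, e, r, s, t, u, hr, hs, rfl, rfl⟩ := τ_eq_commutator (F := F) (k := 0) (by norm_num) 1
  refine ⟨r, s, t, u, hr, hs, fun hc => τ_one_ne (F := F) ?_⟩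
  rw [e, commutatorElement_def]
  calc (τ F s u)⁻¹ * (τ F r t)⁻¹ * (τ F s u)⁻¹⁻¹ * (τ F r t)⁻¹⁻¹
      = (τ F r t * τ F s u)⁻¹ * (τ F s u * τ F r t) := by group
    _ = 1 := by rw [hc, inv_mul_cancel]

theorem nonempty_equiv (h3 : ∃ c : F, c ≠ 0 ∧ c ≠ 1) :
    Nonempty (E6 F ≃* ↥(chevE6.group F)) := by
  obtain ⟨e⟩ := Cfsg.Agent.H47.OmegaIso.equiv_of_rels (F := F) Cfsg.Agent.H46.goodE6 (by simp)
    (fun h => absurd (List.mem_map_of_mem (f := fun D : Cfsg.Lie.ChevalleyDatum => D.nroots) h) (by decide +kernel))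
    (τ F) τ_add τ_comm ((Egrp_eq_top h3).symm ▸ le_top : commutator (E6univ F) ≤ Egrp F) τ_not_comm
  have htop := commutator_E6univ h3
  let f : commutator (E6univ F) ≃* E6univ F := (MulEquiv.subgroupCongr htop).trans Subgroup.topEquiv
  have hmap : (Subgroup.center (commutator (E6univ F))).map (f : commutator (E6univ F) →* E6univ F) =
      Subgroup.center (E6univ F) := by
    ext x
    simp only [Subgroup.mem_map, MonoidHom.coe_coe, Subgroup.mem_center_iff]
    refine ⟨?_, fun hx => ⟨f.symm x, fun g => f.injective (by simp [hx (f g)]), f.apply_symm_apply x⟩⟩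
    rintro ⟨y, hy, rfl⟩ g
    have := congrArg f (hy (f.symm g))
    simpa using this
  exact ⟨(QuotientGroup.congr _ _ f hmap).symm.trans e.symm⟩

end Cfsg.Agent.H46.E6Cubic
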