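import Cfsg.Agent.H46.E6Cubic.Roots

/-!
The isometries of the cubic form of type E₆ are generated by the root elements: an isometry is moved,
one coordinate vector after the other, to one fixing all coordinate vectors.
-/

set_option autoImplicit false
set_option maxRecDepth 20000

namespace Cfsg.Agent.H46.E6Cubic

open Cfsg.Lie
open scoped Matrix

variable {F : Type*} [Field F]

/-- The subgroup generated by the root elements. -/
noncomputable def Egrp (F : Type*) [Field F] : Subgroup (E6univ F) :=
  Subgroup.closure {g | ∃ (r : ℕ) (t : F), r < chevE6.nroots ∧ g = τ F r t}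

theorem τ_mem {r : ℕ} (hr : r < 72) (t : F) : τ F r t ∈ Egrp F :=
  Subgroup.subset_closure ⟨r, t, hr, rfl⟩

/-- An element fixes the coordinate vectors in a list. -/
def Fixes (P : List ℕ) (g : E6univ F) : Prop := ∀ j ∈ P, act g (bv F j) = bv F j

theorem Fixes.mul {P : List ℕ} {g h : E6univ F} (hg : Fixes P g) (hh : Fixes P h) : Fixes P (g * h) :=
  fun j hj => by rw [act_mul, hh j hj, hg j hj]

theorem Fixes.one (P : List ℕ) : Fixes P (1 : E6univ F) := fun _ _ => act_one _

/-- The entries of a root which feed a coordinate. -/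
def into (r a : ℕ) : List (ℕ × ℕ × ℤ) := (rootE r).filter fun e => e.1 == a

/-- A root element fixes the coordinate vectors in a list. -/
def okRoot (P : List ℕ) (r : ℕ) : Bool :=
  decide (r < 72) && P.all fun j => decide (j < 27) && (rootE r).all fun e => !(e.2.1 == j)

theorem okRoot_lt {P : List ℕ} {r : ℕ} (h : okRoot P r = true) : r < 72 := by
  simp only [okRoot, Bool.and_eq_true, decide_eq_true_eq] at h
  exact h.1

theorem fixes_τ {P : List ℕ} {r : ℕ} (h : okRoot P r = true) (t : F) : Fixes P (τ F r t) := by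
  have hr := okRoot_lt h
  simp only [okRoot, Bool.and_eq_true, decide_eq_true_eq, List.all_eq_true, Bool.not_eq_true',
    beq_eq_false_iff_ne] at h
  intro j hj
  obtain ⟨hj27, hne⟩ := h.2 j hj
  rw [act_τ hr]
  funext i
  rw [← ix_code i, xM_mulVec r t _ (code i).isLt]
  rw [List.sum_eq_zero, mul_zero, add_zero]
  intro x hx
  obtain ⟨e, he, rfl⟩ := List.mem_map.1 hx
  have hm := (List.mem_filter.1 he).1
  rw [bv_apply (rootE_lt hm).2 hj27, if_neg (hne e hm), mul_zero]

/-- Moves available: products of root elements fixing a list. -/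
def Reach (P : List ℕ) (h : E6univ F) : Prop := h ∈ Egrp F ∧ Fixes P h

theorem reach_one (P : List ℕ) : Reach P (1 : E6univ F) := ⟨one_mem _, Fixes.one P⟩

theorem reach_mul {P : List ℕ} {g h : E6univ F} (hg : Reach P g) (hh : Reach P h) : Reach P (g * h) :=
  ⟨mul_mem hg.1 hh.1, hg.2.mul hh.2⟩

theorem reach_τ {P : List ℕ} {r : ℕ} (h : okRoot P r = true) (t : F) : Reach P (τ F r t) :=
  ⟨τ_mem (okRoot_lt h) t, fixes_τ h t⟩

/-- A unit sign. -/
def unitB (c : ℤ) : Bool := c == 1 || c == -1

theorem unitB_ne {c : ℤ} (h : unitB c = true) : (c : F) ≠ 0 := by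
  simp only [unitB, Bool.or_eq_true, beq_iff_eq] at h
  rcases h with rfl | rfl <;> simp

theorem unitB_sq {c : ℤ} (h : unitB c = true) : (c : F) * c = 1 := by
  simp only [unitB, Bool.or_eq_true, beq_iff_eq] at h
  rcases h with rfl | rfl <;> simp

/-! ### Forced zeros -/

/-- A pair lies in the monomial with third coordinate `l` and in no other. -/
def isThird (j k l : ℕ) : Bool :=
  match pairTerm j k with
  | [(l', c)] => l' == l && unitB c
  | _ => false

theorem isThird_spec {j k l : ℕ} (hj : j < 27) (hk : k < 27) (h : isThird j k l = true) :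
    ∃ c : ℤ, (c : F) ≠ 0 ∧ ∀ z : I27 → F, B (bv F j) (bv F k) z = (c : F) * z (ix l) := by
  unfold isThird at h
  split at h
  · rename_i l' c he
    simp only [Bool.and_eq_true, beq_iff_eq] at h
    obtain ⟨rfl, hc⟩ := h
    exact ⟨c, unitB_ne hc, fun z => by rw [B_bv_bv hj hk, he]; simp⟩
  · exact absurd h Bool.false_ne_true

/-- A witness that a coordinate of the image of `bv b` vanishes. -/
def zeroOk (P : List ℕ) (b : ℕ) (z : ℕ × Bool × ℕ × ℕ) : Bool :=
  decide (z.1 < 27 ∧ z.2.2.1 < 27 ∧ z.2.2.2 < 27) && P.contains z.2.2.1 &&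
    isThird z.2.2.1 z.2.2.2 z.1 &&
    bif z.2.1 then (pairTerm z.2.2.1 b).isEmpty else P.contains z.2.2.2 && !(z.1 == b)

variable (h3 : ∃ c : F, c ≠ 0 ∧ c ≠ 1)

include h3

theorem zero_of_zeroOk {P : List ℕ} {b : ℕ} (hb : b < 27) {z : ℕ × Bool × ℕ × ℕ}
    (hz : zeroOk P b z = true) {g : E6univ F} (hg : Fixes P g) : act g (bv F b) (ix z.1) = 0 := by
  obtain ⟨l, flag, j, m⟩ := z
  simp only [zeroOk, Bool.and_eq_true, decide_eq_true_eq, List.contains_iff_mem] at hz
  obtain ⟨⟨⟨⟨hl, hj, hm⟩, hjP⟩, hth⟩, hw⟩ := hz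
  obtain ⟨c, hc, hB⟩ := isThird_spec (F := F) hj hm hth
  cases flag with
  | true =>
    simp only [cond_true, List.isEmpty_iff] at hw
    have h := B_act h3 g (bv F j) (act g⁻¹ (bv F m)) (bv F b)
    rw [act_inv, hg j hjP, hB, B_swap (bv F j) (act g⁻¹ _), B_bv_bv hj hb, hw] at h
    simpa [hc] using h
  | false =>
    simp only [cond_false, Bool.and_eq_true, List.contains_iff_mem, Bool.not_eq_true', beq_eq_false_iff_ne] at hw
    have h := B_act h3 g (bv F j) (bv F m) (bv F b)
    rw [hg j hjP, hg m hw.1, hB, hB, bv_apply hl hb, if_neg hw.2, mul_zero] at h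
    exact (mul_eq_zero.1 h).resolve_left hc

theorem closure_one {P : List ℕ} {b j k : ℕ} (hb : b < 27) (hj : j < 27) (hk : k < 27) (hjP : j ∈ P)
    (hkP : k ∈ P) (h : isThird j k b = true) {g : E6univ F} (hg : Fixes P g) :
    act g (bv F b) (ix b) = 1 := by
  obtain ⟨c, hc, hB⟩ := isThird_spec (F := F) hj hk h
  have h := B_act h3 g (bv F j) (bv F k) (bv F b)
  rw [hg j hjP, hg k hkP, hB, hB, bv_apply hb hb, if_pos rfl] at h
  exact mul_left_cancel₀ hc h

omit h3

/-! ### Making a coordinate nonzero -/

/-- The coordinates from which a target can be reached. -/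
def srcs (z : ℕ) (path : List (ℕ × ℕ × ℕ × ℤ)) : List ℕ := z :: path.map fun p => p.1

/-- A path of root elements towards a coordinate. -/
def pathOk (P : List ℕ) (z : ℕ) : List (ℕ × ℕ × ℕ × ℤ) → Bool
  | [] => true
  | (l, m, r, s) :: rest => decide (l < 27 ∧ m < 27) && okRoot P r && unitB s &&
      (into r m == [(m, l, s)]) && (srcs z rest).contains m && pathOk P z rest

theorem path_nonzero {P : List ℕ} {z : ℕ} : ∀ path, pathOk P z path = true → ∀ v : I27 → F,
    (∃ l ∈ srcs z path, v (ix l) ≠ 0) → ∃ h, Reach P h ∧ act h v (ix z) ≠ 0 := by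
  intro path
  induction path with
  | nil =>
    intro _ v ⟨l, hl, hv⟩
    simp only [srcs, List.map_nil, List.mem_singleton] at hl
    subst hl
    exact ⟨1, reach_one P, by rwa [act_one]⟩
  | cons p rest ih =>
    obtain ⟨l, m, r, s⟩ := p
    intro hp v ⟨q, hq, hv⟩
    simp only [pathOk, Bool.and_eq_true, decide_eq_true_eq, List.contains_iff_mem, beq_iff_eq] at hp
    obtain ⟨⟨⟨⟨⟨⟨hl, hm⟩, hr⟩, hs⟩, hinto⟩, hmr⟩, hrest⟩ := hp
    simp only [srcs, List.map_cons, List.mem_cons] at hq
    by_cases hvm : v (ix m) = 0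
    · rcases hq with rfl | rfl | hq
      · exact ih hrest v ⟨_, List.mem_cons_self, hv⟩
      · obtain ⟨h, hh, hne⟩ := ih hrest (act (τ F r 1) v) ⟨m, hmr, by
          rw [act_τ (okRoot_lt hr), xM_mulVec r 1 v hm, show (rootE r).filter _ = _ from hinto, hvm]
          simp [unitB_ne hs, hv]⟩
        exact ⟨h * τ F r 1, reach_mul hh (reach_τ hr 1), by rwa [act_mul]⟩
      · exact ih hrest v ⟨q, List.mem_cons_of_mem _ hq, hv⟩
    · exact ih hrest v ⟨m, hmr, hvm⟩

/-- The check of the start of a step. -/
def initOk (P : List ℕ) (b : ℕ) (Z : List ℕ) : Init → Bool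
  | .closure j k => decide (j < 27 ∧ k < 27) && P.contains j && P.contains k && isThird j k b
  | .seed z r s jw path => decide (z < 27) && okRoot P r && unitB s && (into r b == [(b, z, s)]) &&
      pathOk P z path &&
      match jw with
      | none => (List.range 27).all fun l => (srcs z path).contains l
      | some j => decide (j < 27) && P.contains j &&
          (match pairTerm j b with
            | [(d, c)] => decide (d < 27) && unitB c
            | _ => false) &&
          (pairsAt j).all fun e => (Z.contains e.1 || (srcs z path).contains e.1) &&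
            (Z.contains e.2.1 || (srcs z path).contains e.2.1)

include h3

theorem exists_one {P : List ℕ} {b : ℕ} (hb : b < 27) {Z : List ℕ} {i : Init}
    (hi : initOk P b Z i = true) {g : E6univ F} (hg : Fixes P g)
    (hZ : ∀ l ∈ Z, act g (bv F b) (ix l) = 0) :
    ∃ h, Reach P h ∧ act (h * g) (bv F b) (ix b) = 1 := by
  cases i with
  | closure j k =>
    simp only [initOk, Bool.and_eq_true, decide_eq_true_eq, List.contains_iff_mem] at hi
    exact ⟨1, reach_one P, by rw [one_mul]; exact closure_one h3 hb hi.1.1.1.1 hi.1.1.1.2 hi.1.1.2 hi.1.2 hi.2 hg⟩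
  | seed z r s jw path =>
    simp only [initOk, Bool.and_eq_true, decide_eq_true_eq, beq_iff_eq] at hi
    obtain ⟨⟨⟨⟨⟨hz, hr⟩, hs⟩, hinto⟩, hpath⟩, hjw⟩ := hi
    set v := act g (bv F b) with hv
    have hex : ∃ l ∈ srcs z path, v (ix l) ≠ 0 := by
      by_contra hcon
      simp only [not_exists, not_and, not_not] at hcon
      cases jw with
      | none =>
        simp only [List.all_eq_true, List.mem_range, List.contains_iff_mem] at hjw
        have h0 : v = 0 := funext fun i => by
          rw [← ix_code i]; exact hcon _ (hjw _ (code i).isLt)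
        have h1 : act g⁻¹ v = bv F b := by rw [hv, ← act_mul, inv_mul_cancel, act_one]
        rw [h0] at h1
        have := congrFun h1 (ix b)
        simp [act, bv_apply hb hb] at this
      | some j =>
        simp only [Bool.and_eq_true, decide_eq_true_eq, List.contains_iff_mem, List.all_eq_true,
          Bool.or_eq_true] at hjw
        obtain ⟨⟨⟨hj, hjP⟩, hpt⟩, hall⟩ := hjw
        split at hpt
        · rename_i d c he
          simp only [Bool.and_eq_true, decide_eq_true_eq] at hpt
          have h0 : ∀ y, B (bv F j) v y = 0 := by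
            intro y
            rw [B_bv hj]
            refine List.sum_eq_zero fun x hx => ?_
            obtain ⟨e, hem, rfl⟩ := List.mem_map.1 hx
            obtain ⟨h1, h2⟩ := hall e hem
            have z1 : v (ix e.1) = 0 := h1.elim (hZ _) (hcon _)
            have z2 : v (ix e.2.1) = 0 := h2.elim (hZ _) (hcon _)
            rw [z1, z2]; ring
          have h := B_act h3 g (bv F j) (bv F b) (bv F d)
          rw [hg j hjP, ← hv, h0, B_bv_bv hj hb, he] at h
          simp [bv_apply hpt.1 hpt.1] at h
          exact unitB_ne hpt.2 h.symm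
        · exact absurd hpt Bool.false_ne_true
    obtain ⟨h, hh, hne⟩ := path_nonzero path hpath v hex
    set w := act h v with hw
    refine ⟨τ F r ((1 - w (ix b)) * ((s : F) * w (ix z))⁻¹) * h, reach_mul (reach_τ hr _) hh, ?_⟩
    rw [act_mul, act_mul, ← hv, ← hw, act_τ (okRoot_lt hr), xM_mulVec r _ w hb,
      show (rootE r).filter _ = _ from hinto]
    have h0 : (s : F) * w (ix z) ≠ 0 := mul_ne_zero (unitB_ne hs) hne
    simp only [List.map_cons, List.map_nil, List.sum_cons, List.sum_nil, add_zero]
    rw [inv_mul_cancel_right₀ h0]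
    ring

omit h3

/-- The check of the clearing roots. -/
def clearOk (P : List ℕ) (b : ℕ) : List (ℕ × ℕ × ℤ) → Bool
  | [] => true
  | (l, r, s) :: rest => decide (l < 27) && okRoot P r && unitB s && (into r b).isEmpty &&
      (into r l == [(l, b, s)]) && (rest.all fun q => decide (q.1 < 27) && (into r q.1).isEmpty) &&
      clearOk P b rest

theorem exists_clear {P : List ℕ} {b : ℕ} (hb : b < 27) : ∀ L, clearOk P b L = true → ∀ v : I27 → F,
    v (ix b) = 1 → ∃ h, Reach P h ∧ act h v (ix b) = 1 ∧ ∀ p ∈ L, act h v (ix p.1) = 0 := by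
  intro L
  induction L with
  | nil => exact fun _ v hv => ⟨1, reach_one P, by rwa [act_one], by simp⟩
  | cons p rest ih =>
    obtain ⟨l, r, s⟩ := p
    intro hp v hv
    simp only [clearOk, Bool.and_eq_true, decide_eq_true_eq, List.all_eq_true, List.isEmpty_iff, beq_iff_eq] at hp
    obtain ⟨⟨⟨⟨⟨⟨hl, hr⟩, hs⟩, hb0⟩, hl1⟩, hrest0⟩, hrest⟩ := hp
    obtain ⟨h, hh, hb1, hz⟩ := ih hrest v hv
    set w := act h v with hw
    refine ⟨τ F r (-(s : F) * w (ix l)) * h, reach_mul (reach_τ hr _) hh, ?_, ?_⟩
    · rw [act_mul, ← hw, act_τ (okRoot_lt hr), xM_mulVec r _ w hb, show (rootE r).filter _ = _ from hb0]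
      simp [hb1]
    · intro p hp
      rw [act_mul, ← hw, act_τ (okRoot_lt hr)]
      rcases List.mem_cons.1 hp with rfl | hp
      · rw [xM_mulVec r _ w hl, show (rootE r).filter _ = _ from hl1]
        simp only [List.map_cons, List.map_nil, List.sum_cons, List.sum_nil, add_zero, hb1, mul_one]
        linear_combination -(w (ix l)) * unitB_sq (F := F) hs
      · obtain ⟨hq, hq0⟩ := hrest0 p hp
        rw [xM_mulVec r _ w hq, show (rootE r).filter _ = _ from hq0]
        simp [hz p hp]

/-- The check of a coordinate killed by the quadratic relations. -/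
def restOk (b : ℕ) (K : List ℕ) (p : ℕ × ℕ) : Bool :=
  decide (p.1 < 27 ∧ p.2 < 27) &&
    match (pairsAt p.2).filter fun e => !(K.contains e.1 || K.contains e.2.1) with
    | [(x, y, c)] => unitB c && ((x == b && y == p.1) || (x == p.1 && y == b))
    | _ => false

include h3

theorem zero_of_restOk {b : ℕ} (hb : b < 27) {K : List ℕ} {p : ℕ × ℕ} (hp : restOk b K p = true)
    (g : E6univ F) (h1 : act g (bv F b) (ix b) = 1) (hK : ∀ l ∈ K, act g (bv F b) (ix l) = 0) :
    act g (bv F b) (ix p.1) = 0 := by
  simp only [restOk, Bool.and_eq_true, decide_eq_true_eq] at hp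
  obtain ⟨⟨-, hd⟩, hp⟩ := hp
  set v := act g (bv F b) with hv
  have h := D_act h3 g (bv F b) (act g⁻¹ (bv F p.2))
  rw [act_inv, D_bv hb, D_to_bv hd, ← hv] at h
  set Q : ℕ × ℕ × ℤ → Bool := fun e => !(K.contains e.1 || K.contains e.2.1) with hQ
  have h0 : (((pairsAt p.2).filter fun e => !Q e).map
      fun e => (e.2.2 : F) * (v (ix e.1) * v (ix e.2.1))).sum = 0 := by
    refine List.sum_eq_zero fun x hx => ?_
    obtain ⟨e, he, rfl⟩ := List.mem_map.1 hx
    have := (List.mem_filter.1 he).2
    simp only [hQ, Bool.not_not, Bool.or_eq_true, List.contains_iff_mem] at this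
    rcases this with hk | hk <;> simp [hK _ hk]
  rw [← ((List.filter_append_perm Q (pairsAt p.2)).map _).sum_eq, List.map_append, List.sum_append, h0,
    add_zero] at h
  split at hp
  · rename_i x y c he
    rw [he] at h
    simp only [Bool.and_eq_true, Bool.or_eq_true, beq_iff_eq] at hp
    obtain ⟨hc, hp⟩ := hp
    rcases hp with ⟨rfl, rfl⟩ | ⟨rfl, rfl⟩ <;> simpa [h1, unitB_ne hc] using h
  · exact absurd hp Bool.false_ne_true

omit h3

/-- The check of one step. -/
def stepOk (P : List ℕ) (S : Step) : Bool :=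
  decide (S.b < 27) && (S.zero.all fun z => zeroOk P S.b z) &&
    initOk P S.b (S.zero.map fun z => z.1) S.init && clearOk P S.b S.clear &&
    (S.rest.all fun p => restOk S.b (S.zero.map (fun z => z.1) ++ S.clear.map fun p => p.1) p) &&
    (List.range 27).all fun l => l == S.b || (S.zero.map fun z => z.1).contains l ||
      (S.clear.map fun p => p.1).contains l || (S.rest.map fun p => p.1).contains l

include h3

theorem exists_step {P : List ℕ} {S : Step} (hS : stepOk P S = true) {g : E6univ F} (hg : Fixes P g) :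
    ∃ h ∈ Egrp F, Fixes (S.b :: P) (h * g) := by
  simp only [stepOk, Bool.and_eq_true, decide_eq_true_eq, List.all_eq_true, Bool.or_eq_true, beq_iff_eq,
    List.mem_range, List.contains_iff_mem] at hS
  obtain ⟨⟨⟨⟨⟨hb, hzero⟩, hinit⟩, hclear⟩, hrest⟩, hcov⟩ := hS
  have hZ : ∀ g' : E6univ F, Fixes P g' → ∀ l ∈ S.zero.map (fun z => z.1), act g' (bv F S.b) (ix l) = 0 := by
    intro g' hg' l hl
    obtain ⟨z, hz, rfl⟩ := List.mem_map.1 hl
    exact zero_of_zeroOk h3 hb (hzero z hz) hg'
  obtain ⟨h1, hh1, hone⟩ := exists_one h3 hb hinit hg (hZ g hg)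
  obtain ⟨h2, hh2, hone2, hclr⟩ := exists_clear hb _ hclear _ hone
  have hr := reach_mul hh2 hh1
  refine ⟨h2 * h1, hr.1, ?_⟩
  have hfix : Fixes P (h2 * h1 * g) := hr.2.mul hg
  rw [← act_mul, ← mul_assoc] at hone2
  intro j hj
  rcases List.mem_cons.1 hj with rfl | hj
  · funext i
    rw [← ix_code i]
    set a := (code i).val with ha
    have ha27 : a < 27 := (code i).isLt
    rw [bv_apply ha27 hb]
    have hK : ∀ l ∈ S.zero.map (fun z => z.1) ++ S.clear.map (fun p => p.1),
        act (h2 * h1 * g) (bv F S.b) (ix l) = 0 := by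
      intro l hl
      rcases List.mem_append.1 hl with hl | hl
      · exact hZ _ hfix l hl
      · obtain ⟨p, hp, rfl⟩ := List.mem_map.1 hl
        rw [mul_assoc, act_mul]
        exact hclr p hp
    by_cases hab : a = S.b
    · rw [hab, if_pos rfl, hone2]
    · rw [if_neg hab]
      rcases hcov a ha27 with ((h | h) | h) | h
      · exact absurd h hab
      · exact hK _ (List.mem_append_left _ h)
      · exact hK _ (List.mem_append_right _ h)
      · obtain ⟨p, hp, hpa⟩ := List.mem_map.1 h
        rw [← hpa]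
        exact zero_of_restOk h3 hb (hrest p hp) _ hone2 hK
  · exact hfix j hj

omit h3

/-- The check of all steps from a fixed list on. -/
def runOk : List ℕ → List Step → Bool
  | P, [] => (List.range 27).all fun l => P.contains l
  | P, S :: L => stepOk P S && runOk (S.b :: P) L

theorem runOk_steps : runOk [] steps = true := by decide +kernel

include h3

theorem mem_of_runOk : ∀ (L : List Step) (P : List ℕ), runOk P L = true → ∀ g : E6univ F,
    Fixes P g → g ∈ Egrp F := by
  intro L
  induction L with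
  | nil =>
    intro P h g hg
    simp only [runOk, List.all_eq_true, List.mem_range, List.contains_iff_mem] at h
    have : g = 1 := by
      refine τ_ext (Matrix.ext_of_mulVec_single fun i => ?_)
      have := hg _ (h _ (code i).isLt)
      rw [bv, ix_code] at this
      simp [act] at this ⊢
      rw [this]
      funext k
      simp [Pi.single_apply, Matrix.one_apply]
    rw [this]; exact one_mem _
  | cons S L ih =>
    intro P h g hg
    simp only [runOk, Bool.and_eq_true] at h
    obtain ⟨k, hk, hfix⟩ := exists_step h3 h.1 hg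
    exact (Subgroup.mul_mem_cancel_left _ hk).1 (ih _ h.2 _ hfix)

theorem Egrp_eq_top : Egrp F = ⊤ :=
  eq_top_iff.2 fun g _ => mem_of_runOk h3 steps [] runOk_steps g (by simp [Fixes])

end Cfsg.Agent.H46.E6Cubic
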