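import Cfsg.Agent.H46.E6Cubic.Form
import Cfsg.Agent.H47.SparsePoly
import Cfsg.Agent.H70.Steinberg.Pres

/-!
The root elements of type E₆ on the 27 coordinates preserve the cubic form and satisfy Steinberg's
commutator relations.
-/

set_option autoImplicit false
set_option maxRecDepth 20000

namespace Cfsg.Agent.H46.E6Cubic

open Cfsg.Lie Cfsg.Agent.H47
open scoped Matrix

/-- The derivation of a root. -/
def rootE (r : ℕ) : List (ℕ × ℕ × ℤ) := rootTab.getD r []

/-- The derivation of a root as a sparse matrix. -/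
noncomputable def soE (r : ℕ) : SPoly := SPoly.mapR (fun e => ((e.1, e.2.1, 0), e.2.2)) (rootE r)

theorem rootE_lt {r : ℕ} {e : ℕ × ℕ × ℤ} (he : e ∈ rootE r) : e.1 < 27 ∧ e.2.1 < 27 := by
  have h : ∀ L ∈ rootTab, ∀ e ∈ L, e.1 < 27 ∧ e.2.1 < 27 := by decide +kernel
  by_cases hr : r < rootTab.length
  · exact h _ (List.getElem_mem hr) e (by simpa [rootE, List.getD_eq_getElem?_getD, hr] using he)
  · simp [rootE, List.getD_eq_getElem?_getD, List.getElem?_eq_none (not_lt.1 hr)] at he

variable {F : Type*} [Field F]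

/-- The derivation as a matrix. -/
noncomputable def eM (F : Type*) [Field F] (r : ℕ) : Matrix (Fin 27) (Fin 27) F := SPoly.eval 27 (soE r) 0

theorem eval_map (L : SPoly) :
    (SPoly.eval 27 L (0 : ℤ)).map (Int.castRingHom F) = SPoly.eval 27 L (0 : F) := by
  induction L with
  | nil => simp [SPoly.eval_nil]
  | cons e L ih =>
    ext i j
    have := congrFun (congrFun ih i) j
    simp only [Matrix.map_apply] at this
    simp only [SPoly.eval_cons, Matrix.map_apply, Matrix.add_apply, map_add, this, SPoly.unitAt,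
      Matrix.of_apply]
    split_ifs <;> simp

theorem eq_of_chk {A C : SPoly} (h : SPoly.eqMod 0 A C = true) :
    SPoly.eval 27 A (0 : F) = SPoly.eval 27 C 0 := by
  rw [← eval_map, ← eval_map, SPoly.eval_eq_of_eqMod (F := ℤ) 0 h 0]

theorem eM_mul (r : ℕ) (A : SPoly) :
    SPoly.eval 27 (SPoly.mul (soE r) A) (0 : F) = eM F r * SPoly.eval 27 A 0 := by
  refine SPoly.eval_mul _ _ (fun a ha => ?_) 0
  rw [soE, SPoly.mapR_eq, List.mem_map] at ha
  obtain ⟨e, he, rfl⟩ := ha
  exact (rootE_lt he).2

/-- The squares vanish. -/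
noncomputable def sqChk : Bool := (List.range 72).all fun r => SPoly.eqMod 0 (SPoly.mul (soE r) (soE r)) []

theorem sqChk_eq : sqChk = true := by decide +kernel

theorem eM_sq {r : ℕ} (hr : r < 72) : eM F r * eM F r = 0 := by
  have h := sqChk_eq
  simp only [sqChk, List.all_eq_true, List.mem_range] at h
  have := eM_mul (F := F) r (soE r)
  rw [eq_of_chk (h r hr), SPoly.eval_nil] at this
  exact this.symm

/-- The matrix of a root element. -/
noncomputable def xM (F : Type*) [Field F] (r : ℕ) (t : F) : Matrix I27 I27 F :=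
  (1 + t • eM F r).submatrix code code

theorem xM_mul_self {r : ℕ} (hr : r < 72) (t u : F) : xM F r t * xM F r u = xM F r (t + u) := by
  rw [xM, xM, xM, Matrix.submatrix_mul_equiv]
  congr 1
  simp only [mul_add, add_mul, one_mul, mul_one, smul_mul_assoc, mul_smul_comm, smul_smul, eM_sq hr,
    smul_zero, add_zero, add_smul]
  abel

theorem xM_zero (r : ℕ) : xM F r (0 : F) = 1 := by simp [xM]

/-- The value at a coordinate after a root element. -/
theorem xM_mulVec (r : ℕ) (t : F) (v : I27 → F) {a : ℕ} (ha : a < 27) :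
    (xM F r t *ᵥ v) (ix a) =
      v (ix a) + t * (((rootE r).filter fun e => e.1 == a).map fun e => (e.2.2 : F) * v (ix e.2.1)).sum := by
  have key : ∀ L : List (ℕ × ℕ × ℤ), (∀ e ∈ L, e.2.1 < 27) →
      ((SPoly.eval 27 (L.map fun e => ((e.1, e.2.1, 0), e.2.2)) (0 : F)).submatrix code code *ᵥ v) (ix a) =
        ((L.filter fun e => e.1 == a).map fun e => (e.2.2 : F) * v (ix e.2.1)).sum := by
    intro L hL
    induction L with
    | nil => simp [SPoly.eval_nil]
    | cons e L ih =>
      have he := hL e List.mem_cons_self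
      rw [List.map_cons, SPoly.eval_cons, Matrix.submatrix_add, Pi.add_apply, Pi.add_apply, Matrix.add_mulVec,
        Pi.add_apply,
        ih fun x hx => hL x (List.mem_cons_of_mem _ hx), Matrix.mulVec, dotProduct,
        Finset.sum_eq_single (ix e.2.1)]
      · simp only [Matrix.submatrix_apply, SPoly.unitAt, Matrix.of_apply, code_ix ha, code_ix he, pow_zero,
          mul_one, and_true, List.filter_cons]
        by_cases h : e.1 = a
        · simp [h]
        · simp [h, Ne.symm h]
      · intro j _ hj
        rw [Matrix.submatrix_apply, SPoly.unitAt, Matrix.of_apply, if_neg, zero_mul]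
        rintro ⟨-, h⟩
        exact hj (by rw [← h, ix_code])
      · exact fun h => absurd (Finset.mem_univ _) h
  rw [xM, Matrix.submatrix_add, Pi.add_apply, Pi.add_apply, Matrix.submatrix_one_equiv, Matrix.submatrix_smul,
    Pi.smul_apply, Pi.smul_apply, Matrix.add_mulVec,
    Matrix.one_mulVec, Matrix.smul_mulVec, Pi.add_apply, Pi.smul_apply, smul_eq_mul,
    eM, soE, SPoly.mapR_eq, key _ fun e he => (rootE_lt he).2]

/-- The images of a coordinate under `1 + t e_r`, as `(power of t, coordinate, coefficient)`. -/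
def imgs (r a : ℕ) : List (ℕ × ℕ × ℤ) :=
  (0, a, 1) :: ((rootE r).filter fun e => e.1 == a).map fun e => (1, e.2.1, e.2.2)

/-- The middle of a sorted key. -/
def key (d p q w : ℕ) : ℕ :=
  ((d * 27 + min p (min q w)) * 27 + max (min p q) (min (max p q) w)) * 27 + max p (max q w)

/-- The value of a key. -/
def kval (t : F) (v : I27 → F) (k : ℕ) : F :=
  t ^ (k / 19683) * (v (ix (k / 729 % 27)) * v (ix (k / 27 % 27)) * v (ix (k % 27)))

theorem kval_key (t : F) (v : I27 → F) (d : ℕ) {p q w : ℕ} (hp : p < 27) (hq : q < 27) (hw : w < 27) :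
    kval t v (key d p q w) = t ^ d * (v (ix p) * v (ix q) * v (ix w)) := by
  unfold kval key
  generalize hA : min p (min q w) = A
  generalize hM : max (min p q) (min (max p q) w) = M
  generalize hC : max p (max q w) = C
  have h1 : ((d * 27 + A) * 27 + M) * 27 + C = d * 19683 + (A * 729 + M * 27 + C) := by ring
  rw [h1]
  have e1 : (d * 19683 + (A * 729 + M * 27 + C)) / 19683 = d := by omega
  have e2 : (d * 19683 + (A * 729 + M * 27 + C)) / 729 % 27 = A := by omega
  have e3 : (d * 19683 + (A * 729 + M * 27 + C)) / 27 % 27 = M := by omega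
  have e4 : (d * 19683 + (A * 729 + M * 27 + C)) % 27 = C := by omega
  rw [e1, e2, e3, e4]
  congr 1
  subst hA hM hC
  have f2 : ∀ a b : ℕ, v (ix (min a b)) * v (ix (max a b)) = v (ix a) * v (ix b) := by
    intro a b
    rcases le_total a b with h | h
    · rw [min_eq_left h, max_eq_right h]
    · rw [min_eq_right h, max_eq_left h, mul_comm]
  have hA : min p (min q w) = min (min p q) (min (max p q) w) := by omega
  have hC : max p (max q w) = max (max p q) w := by omega
  rw [hA, hC, f2, mul_assoc, f2 (max p q) w, ← mul_assoc, f2]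

/-- The expansion of one monomial, minus that monomial. -/
def expand (r : ℕ) (m : ℕ × ℕ × ℕ × ℤ) : List (ℕ × ℤ) :=
  (key 0 m.1 m.2.1 m.2.2.1, -m.2.2.2) :: (imgs r m.1).flatMap fun e => (imgs r m.2.1).flatMap fun f =>
    (imgs r m.2.2.1).map fun g =>
      (key (e.1 + f.1 + g.1) e.2.1 f.2.1 g.2.1, m.2.2.2 * e.2.2 * f.2.2 * g.2.2)

/-- All terms of `T((1 + t e_r) v) - T v`. -/
def terms (r : ℕ) : List (ℕ × ℤ) := mons.flatMap fun m =>
  bif ((rootE r).any fun e => e.1 == m.1 || e.1 == m.2.1 || e.1 == m.2.2.1) then expand r m else []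

/-- Every key has total coefficient zero. -/
def zchk : ℕ → List (ℕ × ℤ) → Bool
  | _, [] => true
  | 0, _ :: _ => false
  | n + 1, e :: L => decide ((((e :: L).filter fun x => x.1 == e.1).map Prod.snd).sum = 0) &&
      zchk n ((e :: L).filter fun x => !(x.1 == e.1))

theorem sum_eq_zero_of_zchk (f : ℕ → F) :
    ∀ (n : ℕ) (L : List (ℕ × ℤ)), zchk n L = true → (L.map fun e => (e.2 : F) * f e.1).sum = 0 := by
  intro n
  induction n with
  | zero => rintro (_ | ⟨e, L⟩) h <;> simp_all [zchk]
  | succ n ih =>
    rintro (_ | ⟨e, L⟩) h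
    · simp
    simp only [zchk, Bool.and_eq_true, decide_eq_true_eq] at h
    rw [← ((List.filter_append_perm (fun x => x.1 == e.1) (e :: L)).map _).sum_eq, List.map_append,
      List.sum_append, ih _ h.2, add_zero]
    have : ∀ M : List (ℕ × ℤ), (∀ x ∈ M, x.1 = e.1) →
        (M.map fun x => (x.2 : F) * f x.1).sum = ((M.map Prod.snd).sum : ℤ) * f e.1 := by
      intro M hM
      induction M with
      | nil => simp
      | cons x M ihM =>
        simp only [List.map_cons, List.sum_cons, ihM fun y hy => hM y (List.mem_cons_of_mem _ hy),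
          hM x List.mem_cons_self, Int.cast_add]
        ring
    rw [this _ fun x hx => by simpa using (List.mem_filter.1 hx).2, h.1, Int.cast_zero, zero_mul]

theorem terms_chk : ((List.range 72).all fun r => zchk (terms r).length (terms r)) = true := by
  decide +kernel

theorem sum_imgs (r a : ℕ) (t : F) (v : I27 → F) (ha : a < 27) :
    ((imgs r a).map fun e => t ^ e.1 * ((e.2.2 : F) * v (ix e.2.1))).sum = (xM F r t *ᵥ v) (ix a) := by
  rw [xM_mulVec r t v ha, imgs, List.map_cons, List.sum_cons, List.map_map, ← List.sum_map_mul_left]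
  simp [Function.comp_def]

theorem T_xM {r : ℕ} (hr : r < 72) (t : F) (v : I27 → F) : T (xM F r t *ᵥ v) = T v := by
  have hz := List.all_eq_true.1 terms_chk r (List.mem_range.2 hr)
  have h0 := sum_eq_zero_of_zchk (kval t v) _ _ hz
  have h1 : ((terms r).map fun e => (e.2 : F) * kval t v e.1).sum =
      (mons.map fun m => tm m (xM F r t *ᵥ v) - tm m v).sum := by
    rw [terms, sum_flatMap]
    congr 1
    refine List.map_congr_left fun m hm => ?_
    obtain ⟨h1, h2, h3, -⟩ := mons_lt m hm
    cases hb : (rootE r).any fun e => e.1 == m.1 || e.1 == m.2.1 || e.1 == m.2.2.1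
    · have hno : ∀ a, (a = m.1 ∨ a = m.2.1 ∨ a = m.2.2.1) → ((rootE r).filter fun e => e.1 == a) = [] := by
        intro a ha
        rw [List.filter_eq_nil_iff]
        intro e he hea
        rw [List.any_eq_false] at hb
        apply hb e he
        simp only [beq_iff_eq] at hea
        rcases ha with rfl | rfl | rfl <;> simp [hea]
      simp [tm, xM_mulVec r t v h1, xM_mulVec r t v h2, xM_mulVec r t v h3, hno _ (Or.inl rfl),
        hno _ (Or.inr (Or.inl rfl)), hno _ (Or.inr (Or.inr rfl))]
    · simp only [cond_true, expand, List.map_cons, List.sum_cons, sum_flatMap, List.map_map]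
      have himg : ∀ a, a < 27 → ∀ e ∈ imgs r a, e.2.1 < 27 := by
        intro a ha e he
        rw [imgs, List.mem_cons, List.mem_map] at he
        rcases he with rfl | ⟨x, hx, rfl⟩
        · exact ha
        · exact (rootE_lt (List.mem_filter.1 hx).1).2
      rw [kval_key t v 0 h1 h2 h3, tm, tm, ← sum_imgs r m.1 t v h1, ← sum_imgs r m.2.1 t v h2,
        ← sum_imgs r m.2.2.1 t v h3]
      rw [List.map_congr_left fun e he => congrArg List.sum (List.map_congr_left fun f hf => congrArg List.sum
        (List.map_congr_left (g := fun g : ℕ × ℕ × ℤ => ((m.2.2.2 : F) * (t ^ e.1 * ((e.2.2 : F) * v (ix e.2.1))) *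
          (t ^ f.1 * ((f.2.2 : F) * v (ix f.2.1)))) * (t ^ g.1 * ((g.2.2 : F) * v (ix g.2.1))))
          fun g hg => by
            simp only [Function.comp_apply]
            rw [kval_key t v _ (himg _ h1 e he) (himg _ h2 f hf) (himg _ h3 g hg)]
            push_cast
            ring))]
      simp only [List.sum_map_mul_left, List.sum_map_mul_right]
      push_cast
      ring
  rw [h1] at h0
  have h2 : ∀ (L : List (ℕ × ℕ × ℕ × ℤ)) (f g : ℕ × ℕ × ℕ × ℤ → F),
      (L.map fun m => f m - g m).sum = (L.map f).sum - (L.map g).sum := by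
    intro L f g
    induction L with
    | nil => simp
    | cons a L ih => simp only [List.map_cons, List.sum_cons, ih]; ring
  rw [h2] at h0
  exact sub_eq_zero.1 h0

/-- The root element as an isometry. -/
noncomputable def τ (F : Type*) [Field F] (r : ℕ) (t : F) : E6univ F :=
  if hr : r < 72 then
    ⟨⟨xM F r t, xM F r (-t), by rw [xM_mul_self hr, add_neg_cancel, xM_zero],
      by rw [xM_mul_self hr, neg_add_cancel, xM_zero]⟩,
      fun v => by rw [cubicT_eq, cubicT_eq]; exact T_xM hr t v⟩
  else 1

theorem coe_τ {r : ℕ} (hr : r < 72) (t : F) :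
    (((τ F r t : E6univ F) : GL I27 F) : Matrix I27 I27 F) = xM F r t := by
  rw [τ, dif_pos hr]

theorem act_τ {r : ℕ} (hr : r < 72) (t : F) (v : I27 → F) : act (τ F r t) v = xM F r t *ᵥ v := by
  rw [act, coe_τ hr]

theorem τ_ext {g h : E6univ F}
    (e : ((g : GL I27 F) : Matrix I27 I27 F) = ((h : GL I27 F) : Matrix I27 I27 F)) : g = h :=
  Subtype.ext (Units.ext e)

theorem τ_add (r : ℕ) (hr : r < chevE6.nroots) (t u : F) : τ F r t * τ F r u = τ F r (t + u) := by
  have hr' : r < 72 := hr
  refine τ_ext ?_
  rw [Subgroup.coe_mul, Units.val_mul, coe_τ hr', coe_τ hr', coe_τ hr', xM_mul_self hr']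

/-- The expected commutation of two roots. -/
noncomputable def pairChk (r s : ℕ) : Bool :=
  match chevE6.commTerms r s with
  | [] => SPoly.eqMod 0 (SPoly.mul (soE r) (soE s)) (SPoly.mul (soE s) (soE r))
  | [(k, c, 1, 1)] => decide (k < 72) &&
      SPoly.eqMod 0 (SPoly.mul (soE r) (soE s)) (SPoly.mul (soE s) (soE r) ++ SPoly.shift 0 c (soE k)) &&
      SPoly.eqMod 0 (SPoly.mul (soE r) (soE k)) [] && SPoly.eqMod 0 (SPoly.mul (soE s) (soE k)) []
  | _ => false

/-- All commutations of the roots from `lo` on. -/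
noncomputable def commChk (lo n : ℕ) : Bool := (List.range' lo n).all fun r => (List.range 72).all fun s =>
  Nat.beq s r || Nat.beq s (chevE6.neg r) || pairChk r s

theorem commChk0 : commChk 0 18 = true := by decide +kernel
theorem commChk1 : commChk 18 18 = true := by decide +kernel
theorem commChk2 : commChk 36 18 = true := by decide +kernel
theorem commChk3 : commChk 54 18 = true := by decide +kernel

theorem pairChk_of {r s : ℕ} (hr : r < 72) (hs : s < 72) (h1 : s ≠ r) (h2 : s ≠ chevE6.neg r) :
    pairChk r s = true := by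
  have key : ∀ lo n, commChk lo n = true → lo ≤ r → r < lo + n → pairChk r s = true := by
    intro lo n h ha hb
    simp only [commChk, List.all_eq_true, List.mem_range'_1, List.mem_range, Bool.or_eq_true, Nat.beq_eq] at h
    exact (h r ⟨ha, hb⟩ s hs).resolve_left (by simp [h1, h2])
  by_cases hA : r < 18
  · exact key 0 18 commChk0 (by omega) (by omega)
  by_cases hB : r < 36
  · exact key 18 18 commChk1 (by omega) (by omega)
  by_cases hC : r < 54
  · exact key 36 18 commChk2 (by omega) (by omega)
  exact key 54 18 commChk3 (by omega) (by omega)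

theorem τ_comm (r s : ℕ) (hr : r < chevE6.nroots) (hs : s < chevE6.nroots) (h1 : s ≠ r)
    (h2 : s ≠ chevE6.neg r) (t u : F) :
    τ F s u * τ F r t = τ F r t * τ F s u *
      Cfsg.Agent.H70.Steinberg.wordEval (τ F) (chevE6.commWord F r s t u) := by
  have hr' : r < 72 := hr
  have hs' : s < 72 := hs
  have hp := pairChk_of hr' hs' h1 h2
  unfold pairChk at hp
  split at hp
  · rename_i he
    have e := eq_of_chk (F := F) hp
    rw [eM_mul r (soE s), eM_mul s (soE r), ← show eM F r = SPoly.eval 27 (soE r) 0 from rfl,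
      ← show eM F s = SPoly.eval 27 (soE s) 0 from rfl] at e
    refine τ_ext ?_
    simp only [ChevalleyDatum.commWord, he, List.map_nil, Cfsg.Agent.H70.Steinberg.wordEval, List.prod_nil,
      mul_one, Subgroup.coe_mul, Units.val_mul, coe_τ hr', coe_τ hs', xM, Matrix.submatrix_mul_equiv]
    congr 1
    simp only [mul_add, add_mul, one_mul, mul_one, smul_mul_assoc, mul_smul_comm, smul_smul, e]
    module
  · rename_i k c he
    simp only [Bool.and_eq_true, decide_eq_true_eq] at hp
    obtain ⟨⟨⟨hk, hp1⟩, hp2⟩, hp3⟩ := hp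
    have f1 := eq_of_chk (F := F) hp1
    have f2 := eq_of_chk (F := F) hp2
    have f3 := eq_of_chk (F := F) hp3
    rw [SPoly.eval_append, SPoly.eval_shift, eM_mul r (soE s), eM_mul s (soE r), pow_zero, mul_one] at f1
    rw [eM_mul r (soE k), SPoly.eval_nil] at f2
    rw [eM_mul s (soE k), SPoly.eval_nil] at f3
    simp only [← show ∀ a, eM F a = SPoly.eval 27 (soE a) 0 from fun _ => rfl] at f1 f2 f3
    refine τ_ext ?_
    simp only [ChevalleyDatum.commWord, he, List.map_cons, List.map_nil, Cfsg.Agent.H70.Steinberg.wordEval,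
      List.prod_cons, List.prod_nil, pow_one, mul_one, Subgroup.coe_mul, Units.val_mul, coe_τ hr', coe_τ hs',
      coe_τ hk, xM, Matrix.submatrix_mul_equiv]
    congr 1
    simp only [mul_add, add_mul, one_mul, mul_one, smul_mul_assoc, mul_smul_comm, smul_smul, mul_assoc,
      f1, f2, f3, eM_sq hk, smul_add, smul_zero, mul_zero]
    module
  · exact absurd hp Bool.false_ne_true

end Cfsg.Agent.H46.E6Cubic
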